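import Mathlib
import Cfsg.Agent.Lib.Helper81.CS3.NGDefs

/-!
# CS3 (S4284), part NG, package [STR]: structure of `C(b)` for a non-central `s`-element `b`
-/

set_option autoImplicit false

namespace Cfsg.Agent.Lib.Helper91.CS3

open Cfsg.Agent.Lib.Helper81.CS3

universe u

theorem str_idx_mem {G : Type u} [Group G] (m n : ℕ) (hyp : Hyp G m n) (x : G) :
    idx x = 1 ∨ idx x = m ∨ idx x = m * n := by
  have h : idx x ∈ Set.range (fun x : G => (Subgroup.centralizer ({x} : Set G)).index) :=
    ⟨x, rfl⟩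
  rw [hyp.2.2.2.2] at h
  simpa using h

theorem str_mem_cent {G : Type u} [Group G] (u b : G) :
    u ∈ Subgroup.centralizer ({b} : Set G) ↔ Commute u b := by
  rw [Subgroup.mem_centralizer_iff]
  constructor
  · intro h
    exact (h b (Set.mem_singleton b)).symm
  · intro h x hx
    rw [Set.mem_singleton_iff] at hx
    subst hx
    exact h.symm

theorem str_central_of_idx_one {G : Type u} [Group G] (x : G) (h : idx x = 1) :
    x ∈ Subgroup.center G := by
  have htop : Subgroup.centralizer ({x} : Set G) = ⊤ := Subgroup.index_eq_one.mp h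
  rw [Subgroup.mem_center_iff]
  intro g
  have hg : g ∈ Subgroup.centralizer ({x} : Set G) := by
    rw [htop]; exact Subgroup.mem_top g
  exact ((str_mem_cent g x).mp hg).eq

theorem pkgStr (hF4 : PkgF4.{u}) : PkgStr.{u} := by
  intro G _ _ m n hyp hng s b hPM
  obtain ⟨hs, hsm, ⟨kb, hkb⟩, hbc⟩ := hPM
  have : Fact s.Prime := ⟨hs⟩
  have hidx : idx b = m * n := by
    rcases str_idx_mem m n hyp b with h | h | h
    · exact absurd (str_central_of_idx_one b h) hbc
    · exact absurd ⟨b, h, s, kb, hs, hsm, hkb⟩ hng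
    · exact h
  refine ⟨hidx, ?_⟩
  have hcent : ∀ y : G, Commute y b → (orderOf y).Coprime s →
      ∀ g : G, Commute g b → Commute g y :=
    fun y hy hyc g hg => hF4 m n hyp s b y hs ⟨kb, hkb⟩ hidx hy.symm hyc g hg
  let Ab : Subgroup G :=
    { carrier := {u | Commute u b ∧ (orderOf u).Coprime s}
      one_mem' := ⟨Commute.one_left b, by simp⟩
      mul_mem' := by
        rintro x y ⟨hx, hxc⟩ ⟨hy, hyc⟩
        refine ⟨hx.mul_left hy, ?_⟩
        have hxy : Commute x y := hcent y hy hyc x hx
        exact Nat.Coprime.coprime_dvd_left hxy.orderOf_mul_dvd_mul_orderOf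
          (Nat.Coprime.mul_left hxc hyc)
      inv_mem' := by
        rintro x ⟨hx, hxc⟩
        exact ⟨hx.inv_left, by rwa [orderOf_inv]⟩ }
  have hAb : ∀ u : G, u ∈ Ab ↔ (Commute u b ∧ (orderOf u).Coprime s) := fun u => Iff.rfl
  have hAbC : Ab ≤ Subgroup.centralizer ({b} : Set G) :=
    fun u hu => (str_mem_cent u b).mpr hu.1
  have hA'cent : Ab.subgroupOf (Subgroup.centralizer ({b} : Set G)) ≤
      Subgroup.center (Subgroup.centralizer ({b} : Set G)) := by
    intro a ha
    rw [Subgroup.mem_center_iff]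
    intro g
    have ha' := Subgroup.mem_subgroupOf.mp ha
    have h1 : Commute (g : G) (a : G) :=
      hcent a ha'.1 ha'.2 g ((str_mem_cent (g : G) b).mp g.2)
    exact Subtype.ext h1.eq
  have hA'normal : (Ab.subgroupOf (Subgroup.centralizer ({b} : Set G))).Normal :=
    ⟨fun a ha g => by
      have h1 := Subgroup.mem_center_iff.mp (hA'cent ha) g
      rw [h1, mul_inv_cancel_right]
      exact ha⟩
  have hquot : IsPGroup s (Subgroup.centralizer ({b} : Set G) ⧸
      Ab.subgroupOf (Subgroup.centralizer ({b} : Set G))) := by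
    intro x
    obtain ⟨c, rfl⟩ := QuotientGroup.mk_surjective x
    obtain ⟨j, t, ht, hjt⟩ :=
      Nat.exists_eq_pow_mul_and_not_dvd (orderOf_pos (c : G)).ne' s hs.ne_one
    refine ⟨j, ?_⟩
    rw [← QuotientGroup.mk_pow, QuotientGroup.eq_one_iff, Subgroup.mem_subgroupOf]
    refine ⟨?_, ?_⟩
    · simpa using ((str_mem_cent (c : G) b).mp c.2).pow_left (s ^ j)
    · have hord : orderOf ((c : G) ^ s ^ j) = t := by
        rw [orderOf_pow' _ (pow_ne_zero j hs.ne_zero), hjt,
          Nat.gcd_eq_right (Dvd.intro t rfl), Nat.mul_div_cancel_left t (pow_pos hs.pos j)]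
      show (orderOf (((c ^ s ^ j : Subgroup.centralizer ({b} : Set G)) : G))).Coprime s
      rw [Subgroup.coe_pow, hord]
      exact ((Nat.Prime.coprime_iff_not_dvd hs).mpr ht).symm
  have hnilq : Group.IsNilpotent (Subgroup.centralizer ({b} : Set G) ⧸
      Ab.subgroupOf (Subgroup.centralizer ({b} : Set G))) := hquot.isNilpotent
  have hnil : Group.IsNilpotent (Subgroup.centralizer ({b} : Set G)) :=
    Subgroup.isNilpotent_of_ker_le_center
      (QuotientGroup.mk' (Ab.subgroupOf (Subgroup.centralizer ({b} : Set G))))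
      (by rw [QuotientGroup.ker_mk']; exact hA'cent)
  obtain ⟨P⟩ : Nonempty (Sylow s (Subgroup.centralizer ({b} : Set G))) := inferInstance
  have hPnormal : (P : Subgroup (Subgroup.centralizer ({b} : Set G))).Normal := inferInstance
  have hPmem : ∀ c : Subgroup.centralizer ({b} : Set G), (∃ k : ℕ, orderOf c = s ^ k) →
      c ∈ (P : Subgroup (Subgroup.centralizer ({b} : Set G))) := by
    rintro c ⟨k, hk⟩
    have hz : IsPGroup s (Subgroup.zpowers c) :=
      IsPGroup.of_card (n := k) (by rw [Nat.card_zpowers, hk])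
    obtain ⟨Q, hQ⟩ := hz.exists_le_sylow
    have hQP : Q = P := by
      have := Sylow.unique_of_normal P hPnormal
      exact Subsingleton.elim Q P
    rw [← hQP]
    exact hQ (Subgroup.mem_zpowers c)
  -- cardinalities
  have hcardA' : Nat.card (Ab.subgroupOf (Subgroup.centralizer ({b} : Set G))) = Nat.card Ab :=
    Nat.card_congr (Subgroup.subgroupOfEquivOfLe hAbC).toEquiv
  have hAcop : (Nat.card Ab).Coprime s := by
    rw [Nat.coprime_comm, Nat.Prime.coprime_iff_not_dvd hs]
    intro hdvd
    obtain ⟨x, hx⟩ := exists_prime_orderOf_dvd_card' (G := Ab) s hdvd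
    have hx' : (orderOf (x : G)).Coprime s := x.2.2
    rw [Subgroup.orderOf_coe, hx] at hx'
    exact hs.ne_one ((Nat.coprime_self s).mp hx')
  obtain ⟨e, he⟩ := IsPGroup.iff_card.mp hquot
  have hcardC : Nat.card (Subgroup.centralizer ({b} : Set G)) = s ^ e * Nat.card Ab := by
    rw [Subgroup.card_eq_card_quotient_mul_card_subgroup
      (Ab.subgroupOf (Subgroup.centralizer ({b} : Set G))), he, hcardA']
  have hcardP : Nat.card P = s ^ e := by
    rw [Sylow.card_eq_multiplicity, hcardC]
    congr 1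
    have hA0 : Nat.card Ab ≠ 0 := Nat.card_pos.ne'
    rw [Nat.factorization_mul (pow_ne_zero e hs.ne_zero) hA0, Finsupp.add_apply,
      hs.factorization_pow, Finsupp.single_eq_same,
      Nat.factorization_eq_zero_of_not_dvd
        ((Nat.Prime.coprime_iff_not_dvd hs).mp hAcop.symm), add_zero]
  have hcardSb : Nat.card ((P : Subgroup (Subgroup.centralizer ({b} : Set G))).map
      (Subgroup.centralizer ({b} : Set G)).subtype) = s ^ e := by
    rw [Subgroup.card_map_of_injective (Subgroup.subtype_injective _)]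
    exact hcardP
  refine ⟨(P : Subgroup (Subgroup.centralizer ({b} : Set G))).map
    (Subgroup.centralizer ({b} : Set G)).subtype, Ab, ?_, hAb, ?_, ?_, ⟨e, hcardSb⟩, hAcop⟩
  · intro u
    constructor
    · rintro ⟨c, hcP, rfl⟩
      refine ⟨(str_mem_cent _ b).mp c.2, ?_⟩
      obtain ⟨k, hk⟩ := P.isPGroup' ⟨c, hcP⟩
      have hk' : (c : G) ^ s ^ k = 1 := by
        have h2 := congrArg (fun z : (P : Subgroup (Subgroup.centralizer ({b} : Set G))) =>
          ((z : Subgroup.centralizer ({b} : Set G)) : G)) hk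
        simpa using h2
      obtain ⟨j, -, hj⟩ := (Nat.dvd_prime_pow hs).mp (orderOf_dvd_of_pow_eq_one hk')
      exact ⟨j, hj⟩
    · rintro ⟨hub, k, hk⟩
      have huC : u ∈ Subgroup.centralizer ({b} : Set G) := (str_mem_cent u b).mpr hub
      refine ⟨⟨u, huC⟩, hPmem ⟨u, huC⟩ ⟨k, ?_⟩, rfl⟩
      rw [← hk]
      exact Subgroup.orderOf_mk u huC
  · intro u hu g hg
    exact hcent u hu.1 hu.2 g hg
  · rw [hcardSb, ← hcardC]
    have h1 := Subgroup.card_mul_index (Subgroup.centralizer ({b} : Set G))
    have h2 : (Subgroup.centralizer ({b} : Set G)).index = m * n := hidx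
    rw [h2] at h1
    exact h1

end Cfsg.Agent.Lib.Helper91.CS3
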