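import Mathlib
import Cfsg.Agent.Lib.Helper81.CS3.NGDefs
import Cfsg.Agent.Lib.Helper91.CS3.Str

/-!
# CS3 (S4284), part NG, package [AB]: type (i) ⟹ `C(b)` abelian
-/

set_option autoImplicit false

namespace Cfsg.Agent.Lib.Helper91.CS3

open Cfsg.Agent.Lib.Helper81.CS3

universe u

theorem ab_mem_of_coprime_pow {G : Type u} [Group G] (H : Subgroup G) (g : G) (a c : ℕ)
    (hac : Nat.Coprime a c) (ha : g ^ a ∈ H) (hc : g ^ c ∈ H) : g ∈ H := by
  have h1 : (g ^ a) ^ (Nat.gcdA a c) * (g ^ c) ^ (Nat.gcdB a c) = g := by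
    rw [← zpow_natCast g a, ← zpow_natCast g c, ← zpow_mul, ← zpow_mul, ← zpow_add,
      ← Nat.gcd_eq_gcd_ab, Nat.Coprime.gcd_eq_one hac]
    simp
  rw [← h1]
  exact H.mul_mem (H.zpow_mem ha _) (H.zpow_mem hc _)

/-- `C(x) ≤ C(y)` with equal indices gives `C(y) ≤ C(x)`. -/
theorem ab_cent_eq {G : Type u} [Group G] [Finite G] (x y : G)
    (hle : ∀ g : G, Commute g x → Commute g y) (hidx : idx x = idx y) :
    ∀ g : G, Commute g y → Commute g x := by
  have hle' : Subgroup.centralizer ({x} : Set G) ≤ Subgroup.centralizer ({y} : Set G) :=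
    fun g hg => (str_mem_cent g y).mpr (hle g ((str_mem_cent g x).mp hg))
  have h1 := Subgroup.card_mul_index (Subgroup.centralizer ({x} : Set G))
  have h2 := Subgroup.card_mul_index (Subgroup.centralizer ({y} : Set G))
  have hidx' : (Subgroup.centralizer ({x} : Set G)).index =
      (Subgroup.centralizer ({y} : Set G)).index := hidx
  have hpos : 0 < (Subgroup.centralizer ({y} : Set G)).index :=
    Nat.pos_of_ne_zero Subgroup.index_ne_zero_of_finite
  have hcard : Nat.card (Subgroup.centralizer ({y} : Set G)) ≤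
      Nat.card (Subgroup.centralizer ({x} : Set G)) := by
    rw [hidx'] at h1
    exact (Nat.eq_of_mul_eq_mul_right hpos (h1.trans h2.symm)).ge
  have heq := Subgroup.eq_of_le_of_card_ge hle' hcard
  intro g hg
  have hmem : g ∈ Subgroup.centralizer ({x} : Set G) := by
    rw [heq]; exact (str_mem_cent g y).mpr hg
  exact (str_mem_cent g x).mp hmem

theorem pkgAb (hStr : PkgStr.{u}) : PkgAb.{u} := by
  intro G _ _ m n hyp hng s b hPM hII
  have hs : s.Prime := hPM.1
  have hsm : s ∣ m := hPM.2.1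
  obtain ⟨hidxb, Sb, Ab, hSb, hAb, hAbcent, -, -, -⟩ := hStr m n hyp hng s b hPM
  unfold TypeII at hII
  push Not at hII
  obtain ⟨u, hub, hucop, hidxu⟩ := hII
  have huAb : u ∈ Ab := (hAb u).mpr ⟨hub, hucop⟩
  have hbu : ∀ g : G, Commute g b → Commute g u := fun g hg => hAbcent u huAb g hg
  have hS : ∀ b' : G, Commute b' b → (∃ k : ℕ, orderOf b' = s ^ k) →
      ∀ g : G, Commute g b → Commute g b' := by
    intro b' hb'b hb'ord g hg
    by_cases hz : b' ∈ Subgroup.center G
    · exact Subgroup.mem_center_iff.mp hz g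
    · have hPM' : PM m s b' := ⟨hs, hsm, hb'ord, hz⟩
      obtain ⟨hidxb', Sb', Ab', -, hAb', hAb'cent, -, -, -⟩ := hStr m n hyp hng s b' hPM'
      have hub'' : Commute u b' := (hbu b' hb'b).symm
      have huAb' : u ∈ Ab' := (hAb' u).mpr ⟨hub'', hucop⟩
      have h1 : ∀ g : G, Commute g b' → Commute g u := fun g hg => hAb'cent u huAb' g hg
      have h2 : ∀ g : G, Commute g u → Commute g b' :=
        ab_cent_eq b' u h1 (hidxb'.trans hidxu.symm)
      exact h2 g (hbu g hg)
  intro x y hx hy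
  obtain ⟨j, t, ht, hjt⟩ :=
    Nat.exists_eq_pow_mul_and_not_dvd (orderOf_pos x).ne' s hs.ne_one
  have ht0 : t ≠ 0 := by
    rintro rfl
    simp at ht
  have hst : Nat.Coprime s t := (Nat.Prime.coprime_iff_not_dvd hs).mpr ht
  have hcop : Nat.Coprime (s ^ j) t := Nat.Coprime.pow_left j hst
  have h1 : x ^ (s ^ j) ∈ Subgroup.centralizer ({y} : Set G) := by
    rw [str_mem_cent]
    have hord : orderOf (x ^ s ^ j) = t := by
      rw [orderOf_pow' _ (pow_ne_zero j hs.ne_zero), hjt,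
        Nat.gcd_eq_right (Dvd.intro t rfl), Nat.mul_div_cancel_left t (pow_pos hs.pos j)]
    have hmem : x ^ s ^ j ∈ Ab :=
      (hAb _).mpr ⟨hx.pow_left _, by rw [hord]; exact hst.symm⟩
    exact (hAbcent _ hmem y hy).symm
  have h2 : x ^ t ∈ Subgroup.centralizer ({y} : Set G) := by
    rw [str_mem_cent]
    have hord : orderOf (x ^ t) = s ^ j := by
      rw [orderOf_pow' _ ht0, hjt, Nat.gcd_eq_right (Dvd.intro_left (s ^ j) rfl),
        Nat.mul_div_cancel _ (Nat.pos_of_ne_zero ht0)]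
    exact (hS (x ^ t) (hx.pow_left _) ⟨j, hord⟩ y hy).symm
  exact (str_mem_cent x y).mp (ab_mem_of_coprime_pow _ x (s ^ j) t hcop h1 h2)

end Cfsg.Agent.Lib.Helper91.CS3
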