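import Mathlib
import Cfsg.Agent.Lib.Helper41.CS3.GoodDefs

/-!
# CS3 (S4284), part GOOD, package [G6FIN]
-/

set_option autoImplicit false

namespace Cfsg.Agent.Lib.Helper91.CS3

open Cfsg.Agent.Lib.Helper41.CS3 Cfsg.Agent.Lib.Helper81.CS3

universe u

theorem pkgG6fin : PkgG6fin.{u} := by
  intro G _ _ m n hyp a hixa hAb hS
  have hcop : m.Coprime n := hyp.2.2.2.1
  have hixa' : (Cn a).index = m := hixa
  -- `C(a)` is normal
  have hnorm : (Cn a).Normal := by
    rw [← Subgroup.normalizer_eq_top_iff, ← Subgroup.index_eq_one]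
    by_contra hne
    obtain ⟨s, hs, hsN⟩ := Nat.exists_prime_and_dvd hne
    have hNm : (Subgroup.normalizer ((Cn a : Subgroup G) : Set G)).index ∣ m := by
      rw [← hixa']
      exact Subgroup.index_dvd_of_le Subgroup.le_normalizer
    obtain ⟨S, hSn⟩ := hS s hs (hsN.trans hNm)
    have hSN : (S : Subgroup G) ≤ Subgroup.normalizer ((Cn a : Subgroup G) : Set G) := by
      intro σ hσ
      rw [Subgroup.mem_normalizer_iff]
      intro h
      constructor
      · intro hh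
        exact hSn σ hσ h hh
      · intro hh
        have h1 := hSn σ⁻¹ (inv_mem hσ) _ hh
        have heq : σ⁻¹ * (σ * h * σ⁻¹) * σ⁻¹⁻¹ = h := by group
        rwa [heq] at h1
    have : Fact s.Prime := ⟨hs⟩
    exact S.not_dvd_index (hsN.trans (Subgroup.index_dvd_of_le hSN))
  let Q : Subgroup G :=
    { carrier := {x | x ∈ Cn a ∧ (orderOf x).Coprime m}
      one_mem' := ⟨Subgroup.one_mem _, by simp⟩
      mul_mem' := by
        rintro x y ⟨hx, hxc⟩ ⟨hy, hyc⟩
        refine ⟨Subgroup.mul_mem _ hx hy, ?_⟩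
        have hxy : Commute x y := hAb x hx y hy
        exact Nat.Coprime.coprime_dvd_left hxy.orderOf_mul_dvd_mul_orderOf
          (Nat.Coprime.mul_left hxc hyc)
      inv_mem' := by
        rintro x ⟨hx, hxc⟩
        exact ⟨Subgroup.inv_mem _ hx, by rwa [orderOf_inv]⟩ }
  have hQnormal : Q.Normal := ⟨fun x hx g => by
    obtain ⟨hxH, hxc⟩ := hx
    refine ⟨hnorm.conj_mem x hxH g, ?_⟩
    have h1 : orderOf (g * x * g⁻¹) = orderOf x :=
      orderOf_injective (MulAut.conj g).toMonoidHom (MulAut.conj g).injective x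
    rw [h1]
    exact hxc⟩
  have hQcomm : IsMulCommutative Q :=
    ⟨⟨fun x y => Subtype.ext (hAb x.1 x.2.1 y.1 y.2.1)⟩⟩
  have hQm : (Nat.card Q).Coprime m := by
    by_contra hnc
    obtain ⟨r, hr, hr1, hr2⟩ := Nat.Prime.not_coprime_iff_dvd.mp hnc
    have : Fact r.Prime := ⟨hr⟩
    obtain ⟨x, hx⟩ := exists_prime_orderOf_dvd_card' (G := Q) r hr1
    have hxc : (orderOf (x : G)).Coprime m := x.2.2
    rw [Subgroup.orderOf_coe, hx] at hxc
    exact hr.ne_one (Nat.Coprime.eq_one_of_dvd hxc hr2)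
  -- `r`-elements, `r ∤ m`, lie in `Q`
  have hrQ : ∀ (r : ℕ) (g : G), r.Prime → ¬ r ∣ m → (∃ k : ℕ, orderOf g = r ^ k) → g ∈ Q := by
    rintro r g hr hrm ⟨k, hk⟩
    have hrcop : (r ^ k).Coprime m :=
      Nat.Coprime.pow_left k ((Nat.Prime.coprime_iff_not_dvd hr).mpr hrm)
    refine ⟨?_, by rw [hk]; exact hrcop⟩
    have h1 : (QuotientGroup.mk g : G ⧸ Cn a) ^ (r ^ k) = 1 := by
      rw [← QuotientGroup.mk_pow, ← hk, pow_orderOf_eq_one]
      rfl
    have h2 : (QuotientGroup.mk g : G ⧸ Cn a) ^ m = 1 := by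
      have h3 := pow_card_eq_one' (G := G ⧸ Cn a) (x := QuotientGroup.mk g)
      rwa [← Subgroup.index_eq_card, hixa'] at h3
    have h3 : orderOf (QuotientGroup.mk g : G ⧸ Cn a) = 1 := by
      have hd1 := orderOf_dvd_of_pow_eq_one h1
      have hd2 := orderOf_dvd_of_pow_eq_one h2
      exact Nat.Coprime.eq_one_of_dvd (Nat.Coprime.coprime_dvd_left hd1 hrcop) hd2
    exact (QuotientGroup.eq_one_iff g).mp (orderOf_eq_one_iff.mp h3)
  have hQn : Q.index.Coprime n := by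
    by_contra hnc
    obtain ⟨r, hr, hr1, hr2⟩ := Nat.Prime.not_coprime_iff_dvd.mp hnc
    have : Fact r.Prime := ⟨hr⟩
    have hrm : ¬ r ∣ m := by
      intro hrm
      exact hr.ne_one (Nat.Coprime.eq_one_of_dvd (Nat.Coprime.coprime_dvd_left hrm hcop) hr2)
    rw [Subgroup.index_eq_card] at hr1
    obtain ⟨xb, hxb⟩ := exists_prime_orderOf_dvd_card' (G := G ⧸ Q) r hr1
    obtain ⟨g, rfl⟩ := QuotientGroup.mk_surjective xb
    obtain ⟨j, t, ht, hjt⟩ :=
      Nat.exists_eq_pow_mul_and_not_dvd (orderOf_pos g).ne' r hr.ne_one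
    have ht0 : t ≠ 0 := by
      rintro rfl
      simp at ht
    have hord : orderOf (g ^ t) = r ^ j := by
      rw [orderOf_pow' _ ht0, hjt, Nat.gcd_eq_right (Dvd.intro_left (r ^ j) rfl),
        Nat.mul_div_cancel _ (Nat.pos_of_ne_zero ht0)]
    have hmem : g ^ t ∈ Q := hrQ r (g ^ t) hr hrm ⟨j, hord⟩
    have h1 : (QuotientGroup.mk g : G ⧸ Q) ^ t = 1 := by
      rw [← QuotientGroup.mk_pow]
      exact (QuotientGroup.eq_one_iff _).mpr hmem
    have h2 := orderOf_dvd_of_pow_eq_one h1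
    rw [hxb] at h2
    exact ht h2
  exact ⟨Q, hQnormal, hQcomm, hQm, hQn⟩

end Cfsg.Agent.Lib.Helper91.CS3
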